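import Cfsg.Agent.UnitGeo.RootPairs

/-! Maximality in the special unitary group of the stabiliser of a pair of complementary totally isotropic
halves. -/

set_option autoImplicit false
set_option linter.unusedSectionVars false

namespace CfsgLib.UnitGeo91

open CfsgLib.UnitGeo

open Cfsg Module CfsgLib.Unitary
open scoped Matrix MatrixGroups

variable {F : Type*} [Field F] {n q : ℕ}

/-- Two complementary totally isotropic subspaces of the same dimension, at least seven. -/
structure IsoPair (q : ℕ) (U W : Submodule F (Fin n → F)) : Prop where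
  left : ∀ x ∈ U, ∀ y ∈ U, hermForm n F q x y = 0
  right : ∀ x ∈ W, ∀ y ∈ W, hermForm n F q x y = 0
  top : U ⊔ W = ⊤
  inf : ∀ x ∈ U, x ∈ W → x = 0
  same : finrank F W = finrank F U
  dim : 5 ≤ finrank F U

variable {U W : Submodule F (Fin n → F)}

lemma IsoPair.symm (h : IsoPair q U W) : IsoPair q W U :=
  ⟨h.right, h.left, by rw [sup_comm, h.top], fun x hx hx' => h.inf x hx' hx, h.same.symm, by
    rw [h.same]; exact h.dim⟩

lemma finrank_span_pair_le' (u v : Fin n → F) :
    finrank F ↥(Submodule.span F {u} ⊔ Submodule.span F {v}) ≤ 2 := by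
  have h3 := Submodule.finrank_add_le_finrank_add_finrank (Submodule.span F {u}) (Submodule.span F {v})
  have h4 : ∀ y : Fin n → F, finrank F (Submodule.span F ({y} : Set (Fin n → F))) ≤ 1 := fun y =>
    (finrank_span_le_card _).trans (by simp)
  have := h4 u
  have := h4 v
  omega

lemma not_mem_span_two {a b c : Fin n → F} (hab : a ∉ Submodule.span F {b})
    (hc : c ∉ Submodule.span F {a} ⊔ Submodule.span F {b}) :
    a ∉ Submodule.span F {b} ⊔ Submodule.span F {c} := by
  intro hm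
  obtain ⟨_, hp, _, hq, e⟩ := Submodule.mem_sup.1 hm
  obtain ⟨r, rfl⟩ := Submodule.mem_span_singleton.1 hp
  obtain ⟨k, rfl⟩ := Submodule.mem_span_singleton.1 hq
  by_cases hk : k = 0
  · rw [hk, zero_smul, add_zero] at e
    exact hab (Submodule.mem_span_singleton.2 ⟨r, e⟩)
  · refine hc ((Submodule.smul_mem_iff _ hk).1 ?_)
    rw [eq_sub_of_add_eq' e]
    exact Submodule.sub_mem _ (Submodule.mem_sup_left (Submodule.mem_span_singleton_self _))
      (Submodule.mem_sup_right (Submodule.smul_mem _ r (Submodule.mem_span_singleton_self _)))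

/-- A vector of `X` annihilated by two functionals and outside a subspace of dimension at most two. -/
lemma exists_ortho_avoid {X P : Submodule F (Fin n → F)} (hX : 5 ≤ finrank F X) (hP : finrank F P ≤ 2)
    (a b : Fin n → F) :
    ∃ c ∈ X, hermForm n F q c a = 0 ∧ hermForm n F q c b = 0 ∧ c ∉ P := by
  set L : X →ₗ[F] F × F := ((hermLeft q a).prod (hermLeft q b)).comp X.subtype with hL
  have h1 := LinearMap.finrank_range_add_finrank_ker L
  have h2 := Submodule.finrank_le (LinearMap.range L)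
  have h3 : finrank F (F × F) = 2 := by rw [Module.finrank_prod, Module.finrank_self]
  by_contra hc
  push Not at hc
  have hle : (LinearMap.ker L).map X.subtype ≤ P := by
    rintro _ ⟨x, hx, rfl⟩
    rw [SetLike.mem_coe, LinearMap.mem_ker] at hx
    exact hc _ x.2 (congrArg Prod.fst hx) (congrArg Prod.snd hx)
  have h4 := Submodule.finrank_mono hle
  rw [← (Submodule.equivMapOfInjective _ X.injective_subtype _).finrank_eq] at h4
  omega

variable [Fintype F] (hF : Fintype.card F = q ^ 2)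
include hF

/-- Dual bases of the two halves. -/
lemma IsoPair.exists_dual_bases (h : IsoPair q U W) :
    ∃ (u : Fin (finrank F U) → Fin n → F) (w : Fin (finrank F U) → Fin n → F),
      (∀ i, u i ∈ U) ∧ (∀ i, w i ∈ W) ∧ (∀ i j, hermForm n F q (u i) (w j) = if i = j then 1 else 0) ∧
      Submodule.span F (Set.range u) = U ∧ Submodule.span F (Set.range w) = W := by
  set b : Basis (Fin (finrank F U)) F W := Module.finBasisOfFinrankEq F W h.same with hb
  set φ : U →ₗ[F] (Fin (finrank F U) → F) :=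
    (LinearMap.pi fun j => hermLeft q (b j : Fin n → F)).comp U.subtype with hφ
  have hspan : Submodule.span F (Set.range fun j => (b j : Fin n → F)) = W := by
    rw [show (fun j => (b j : Fin n → F)) = W.subtype ∘ b from rfl, Set.range_comp, Submodule.span_image,
      b.span_eq, Submodule.map_top, Submodule.range_subtype]
  have hinj : Function.Injective φ := by
    rw [← LinearMap.ker_eq_bot, Submodule.eq_bot_iff]
    intro x hx
    apply Subtype.ext
    refine herm_nondeg hF _ fun v => ?_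
    obtain ⟨p, hp, r, hr, rfl⟩ := Submodule.mem_sup.1 (h.top ▸ Submodule.mem_top : v ∈ U ⊔ W)
    rw [herm_add_right hF, h.left _ x.2 _ hp, zero_add]
    rw [← hspan] at hr
    clear hp
    induction hr using Submodule.span_induction with
    | mem y hy =>
      obtain ⟨j, rfl⟩ := hy
      exact congrFun (LinearMap.mem_ker.1 hx) j
    | zero => exact herm_zero_right hF _
    | add y z _ _ hy hz => rw [herm_add_right hF, hy, hz, add_zero]
    | smul c y _ hy => rw [herm_smul_right, hy, mul_zero]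
  set φe : U ≃ₗ[F] (Fin (finrank F U) → F) :=
    LinearEquiv.ofInjectiveOfFinrankEq φ hinj (by rw [Module.finrank_fintype_fun_eq_card, Fintype.card_fin]) with hφe
  refine ⟨fun i => (φe.symm (Pi.single i 1) : Fin n → F), fun j => (b j : Fin n → F), fun i => (φe.symm _).2,
    fun j => (b j).2, fun i j => ?_, ?_, hspan⟩
  · have h1 : φ (φe.symm (Pi.single i 1)) = Pi.single i 1 := φe.apply_symm_apply _
    have h2 := congrFun h1 j
    simp only [hφ, LinearMap.coe_comp, Function.comp_apply, Submodule.coe_subtype, LinearMap.pi_apply,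
      hermLeft_apply, Pi.single_apply] at h2
    rw [h2]
    exact if_congr eq_comm rfl rfl
  · set bU := ((Pi.basisFun F (Fin (finrank F U))).map φe.symm) with hbU
    rw [show (fun i => (φe.symm (Pi.single i 1) : Fin n → F)) = U.subtype ∘ bU from funext fun i => by
      simp [hbU, Pi.basisFun_apply], Set.range_comp, Submodule.span_image, bU.span_eq, Submodule.map_top,
      Submodule.range_subtype]

lemma IsoPair.exists_dual (h : IsoPair q U W) {v p r : Fin n → F} (hv : v ∈ U) (hp : p ∈ U) (hr : r ∈ U)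
    (hn : v ∉ Submodule.span F {p} ⊔ Submodule.span F {r}) :
    ∃ d ∈ W, hermForm n F q p d = 0 ∧ hermForm n F q r d = 0 ∧ hermForm n F q v d = 1 := by
  obtain ⟨u, w, hu, hw, hd, hsu, -⟩ := h.exists_dual_bases hF
  obtain ⟨φ, hφv, hφ⟩ := Submodule.exists_dual_map_eq_bot_of_notMem hn inferInstance
  set d0 : Fin n → F := ∑ j, (φ (u j)) ^ q • w j with hd0
  have key : ∀ x ∈ U, hermForm n F q x d0 = φ x := by
    intro x hx
    rw [← hsu] at hx
    induction hx using Submodule.span_induction with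
    | mem y hy =>
      obtain ⟨i, rfl⟩ := hy
      rw [hd0, herm_sum_right hF, Finset.sum_eq_single i]
      · rw [herm_smul_right, hd, if_pos rfl, mul_one, pow_q_q hF]
      · intro j _ hj
        rw [herm_smul_right, hd, if_neg (Ne.symm hj), mul_zero]
      · simp
    | zero => rw [herm_zero_left, map_zero]
    | add y z _ _ hy hz => rw [herm_add_left, hy, hz, map_add]
    | smul c y _ hy => rw [herm_smul_left, hy, map_smul, smul_eq_mul]
  have hz : ∀ z ∈ Submodule.span F {p} ⊔ Submodule.span F {r}, φ z = 0 := fun z hz => by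
    have := Submodule.mem_map_of_mem (f := φ) hz
    rwa [hφ, Submodule.mem_bot] at this
  refine ⟨((φ v)⁻¹) ^ q • d0, W.smul_mem _ (W.sum_mem fun j _ => W.smul_mem _ (hw j)), ?_, ?_, ?_⟩
  · rw [herm_smul_right, key p hp, hz p (Submodule.mem_sup_left (Submodule.mem_span_singleton_self p)), mul_zero]
  · rw [herm_smul_right, key r hr, hz r (Submodule.mem_sup_right (Submodule.mem_span_singleton_self r)), mul_zero]
  · rw [herm_smul_right, key v hv, pow_q_q hF, inv_mul_cancel₀ hφv]

section OverGroup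

variable {H : Subgroup (GL (Fin n) F)}
variable (hH : ∀ g ∈ H, ∀ x y, hermForm n F q ((g : Matrix (Fin n) (Fin n) F) *ᵥ x)
  ((g : Matrix (Fin n) (Fin n) F) *ᵥ y) = hermForm n F q x y)
variable (hp : ∀ u ∈ U, ∀ w ∈ W, hermForm n F q u w = 0 → MIn H (rMat q u w))
include hH hp

lemma conj_mem_rMat {a b : Fin n → F} (ha : hermForm n F q a a = 0) (h : MIn H (rMat q a b))
    {c d : Fin n → F} (hg : MIn H (rMat q c d)) :
    MIn H (rMat q (rMat q c d *ᵥ a) (rMat q c d *ᵥ b)) := by
  obtain ⟨g, hgH, hge⟩ := hg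
  obtain ⟨k, hk, hke⟩ := h
  refine ⟨g * k * g⁻¹, H.mul_mem (H.mul_mem hgH hk) (H.inv_mem hgH), ?_⟩
  rw [Units.val_mul, Units.val_mul, hke, conj_rMat hF (hH g hgH) b ha, hge]

lemma conj_mem_tMat {v : Fin n → F} {t : F} (h : MIn H (tMat q v t))
    {c d : Fin n → F} (hg : MIn H (rMat q c d)) :
    MIn H (tMat q (rMat q c d *ᵥ v) t) := by
  obtain ⟨g, hgH, hge⟩ := hg
  obtain ⟨k, hk, hke⟩ := h
  refine ⟨g * k * g⁻¹, H.mul_mem (H.mul_mem hgH hk) (H.inv_mem hgH), ?_⟩
  rw [Units.val_mul, Units.val_mul, hke, conj_tMat hF (hH g hgH), hge]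

/-- A root element attached to a vector of `U` gives a transvection. -/
lemma transv_of_pure_root (h : IsoPair q U W) {b aU aW : Fin n → F} (hb : b ∈ U) (hb0 : b ≠ 0) (haU : aU ∈ U)
    (haW : aW ∈ W) (haa : hermForm n F q (aU + aW) (aU + aW) = 0) (hab : hermForm n F q b (aU + aW) = 0)
    (hmem : MIn H (rMat q b (aU + aW))) (hind : aU ∉ Submodule.span F {b}) :
    ∃ v c, v ≠ 0 ∧ hermForm n F q v v = 0 ∧ c ≠ 0 ∧ c + c ^ q = 0 ∧ MIn H (tMat q v c) := by
  obtain ⟨l, hl⟩ := exists_ne_pow_q hF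
  obtain ⟨w, hwW, hbw, -, hw⟩ := h.exists_dual hF (v := aU) (p := b) (r := b) haU hb hb (by rwa [sup_idem])
  have hbb := h.left b hb b hb
  have hbw' : hermForm n F q b (l • w) = 0 := by rw [herm_smul_right, hbw, mul_zero]
  have hg := hp b hb (l • w) (W.smul_mem _ hwW) hbw'
  have h1 := conj_mem_rMat hF hH hp hbb hmem hg
  have hgb : rMat q b (l • w) *ᵥ b = b := by rw [rMat_mulVec hbb, hbb, hbw']; simp
  have hga : rMat q b (l • w) *ᵥ (aU + aW) = aU + aW + (-(l ^ q)) • b := by
    rw [rMat_mulVec hbb, herm_eq_zero_comm hF hab, herm_smul_right, herm_add_left, hw, h.right aW haW w hwW]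
    module
  rw [hgb, hga, rMat_add_smul hF hbb hab] at h1
  have hinv : MIn H (rMat q (aU + aW) b) := hmem.of_mul_eq_one (rMat_neg_mul hF hbb haa hab)
  refine ⟨b, -(l ^ q) - (-(l ^ q)) ^ q, hb0, hbb, ?_, ?_, ?_⟩
  · rw [neg_pow_q hF, pow_q_q hF, sub_neg_eq_add, neg_add_eq_sub]
    exact sub_ne_zero.2 fun e => hl e.symm
  · rw [sub_pow_q hF, pow_q_q hF]
    ring
  · have h2 := hinv.mul h1
    rwa [← mul_assoc, rMat_neg_mul hF haa hbb (herm_eq_zero_comm hF hab), one_mul] at h2

/-- A root element with two-dimensional projection gives a transvection. -/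
lemma transv_of_root (h : IsoPair q U W) {aU aW bU bW : Fin n → F} (haU : aU ∈ U) (haW : aW ∈ W) (hbU : bU ∈ U)
    (hbW : bW ∈ W) (haa : hermForm n F q (aU + aW) (aU + aW) = 0) (hbb : hermForm n F q (bU + bW) (bU + bW) = 0)
    (hab : hermForm n F q (bU + bW) (aU + aW) = 0) (hmem : MIn H (rMat q (bU + bW) (aU + aW)))
    (hb0 : bU ≠ 0) (hind : aU ∉ Submodule.span F {bU}) :
    ∃ v c, v ≠ 0 ∧ hermForm n F q v v = 0 ∧ c ≠ 0 ∧ c + c ^ q = 0 ∧ MIn H (tMat q v c) := by
  have hd := h.dim
  obtain ⟨c, hcU, hca, hcb, hcN⟩ := exists_ortho_avoid (q := q) (X := U) (by omega) (finrank_span_pair_le' aU bU) aW bW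
  obtain ⟨d, hdW, hbd, hcd, had⟩ := h.exists_dual hF haU hbU hcU (not_mem_span_two hind hcN)
  have hcc := h.left c hcU c hcU
  have hg := hp c hcU d hdW hcd
  have h1 := conj_mem_rMat hF hH hp hbb hmem hg
  have hbc : hermForm n F q (bU + bW) c = 0 := by
    rw [herm_add_left, h.left bU hbU c hcU, herm_eq_zero_comm hF hcb, add_zero]
  have hac : hermForm n F q (aU + aW) c = 0 := by
    rw [herm_add_left, h.left aU haU c hcU, herm_eq_zero_comm hF hca, add_zero]
  have hgb : rMat q c d *ᵥ (bU + bW) = bU + bW := by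
    rw [rMat_mulVec hcc, hbc, herm_add_left, hbd, h.right bW hbW d hdW]; simp
  have hga : rMat q c d *ᵥ (aU + aW) = aU + aW + -c := by
    rw [rMat_mulVec hcc, hac, herm_add_left, had, h.right aW haW d hdW]; module
  have hbc' : hermForm n F q (bU + bW) (-c) = 0 := by rw [herm_neg_right hF, hbc, neg_zero]
  rw [hgb, hga, ← rMat_mul hF hbb hab hbc' (by rw [herm_neg_left, herm_eq_zero_comm hF hac, neg_zero])] at h1
  have h2 := (hmem.of_mul_eq_one (rMat_neg_mul hF hbb haa hab)).mul h1
  rw [← mul_assoc, rMat_neg_mul hF haa hbb (herm_eq_zero_comm hF hab), one_mul] at h2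
  have h3 := h2.of_mul_eq_one (rMat_neg_mul hF hbb (by rw [herm_neg_left, herm_neg_right hF, hcc, neg_zero, neg_zero]) hbc')
  have hcm : -c ∈ U := U.neg_mem hcU
  refine transv_of_pure_root hF hH hp h hcm (fun h0 => hcN ((neg_eq_zero.1 h0).symm ▸ zero_mem _)) hbU hbW hbb
    (herm_eq_zero_comm hF hbc') h3 fun hm => ?_
  obtain ⟨r, hr⟩ := Submodule.mem_span_singleton.1 hm
  rw [smul_neg, ← neg_smul] at hr
  have hr0 : -r ≠ 0 := fun h0 => hb0 (by rw [← hr, h0, zero_smul])
  refine hcN ((Submodule.smul_mem_iff _ hr0).1 ?_)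
  rw [hr]
  exact Submodule.mem_sup_right (Submodule.mem_span_singleton_self _)

/-- A transvection at a vector with non-zero `U`-part gives all transvections at vectors of `U`. -/
lemma transv_half_spread (h : IsoPair q U W) {vU vW : Fin n → F} (hvU : vU ∈ U) (hvW : vW ∈ W)
    (hv0 : vU ≠ 0) (hvv : hermForm n F q (vU + vW) (vU + vW) = 0) {g0 : F} (hg0 : g0 ≠ 0) (htr : g0 + g0 ^ q = 0)
    (hv : MIn H (tMat q (vU + vW) g0)) :
    ∀ u ∈ U, ∀ t : F, t + t ^ q = 0 → MIn H (tMat q u t) := by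
  have hd := h.dim
  obtain ⟨c, hcU, hcv, -, hcN⟩ := exists_ortho_avoid (q := q) (X := U) (P := Submodule.span F {vU}) (by omega)
    ((finrank_span_singleton hv0).le.trans one_le_two) vW vW
  have hc0 : c ≠ 0 := fun h0 => hcN (h0 ▸ zero_mem _)
  have hvUc : vU ∉ Submodule.span F {c} ⊔ Submodule.span F {c} := by
    rw [sup_idem]
    intro hm
    obtain ⟨r, hr⟩ := Submodule.mem_span_singleton.1 hm
    have hr0 : r ≠ 0 := by rintro rfl; exact hv0 (by rw [← hr, zero_smul])
    exact hcN (Submodule.mem_span_singleton.2 ⟨r⁻¹, by rw [← hr, inv_smul_smul₀ hr0]⟩)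
  obtain ⟨d, hdW, hcd, -, hvd⟩ := h.exists_dual hF hvU hcU hcU hvUc
  have hcc := h.left c hcU c hcU
  have hvc : hermForm n F q (vU + vW) c = 0 := by
    rw [herm_add_left, h.left vU hvU c hcU, herm_eq_zero_comm hF hcv, add_zero]
  have hshift : ∀ α : F, MIn H (tMat q (vU + vW + α • c) g0) := by
    intro α
    have hαc : hermForm n F q ((-α) • c) ((-α) • c) = 0 := by rw [herm_self_smul, hcc, mul_zero]
    have h1 := conj_mem_tMat hF hH hp hv (hp ((-α) • c) (U.smul_mem _ hcU) d hdW (by rw [herm_smul_left, hcd, mul_zero]))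
    rwa [rMat_mulVec hαc, herm_smul_right, hvc, mul_zero, zero_smul, add_zero, herm_add_left, hvd,
      h.right vW hvW d hdW, add_zero, one_smul, sub_eq_add_neg, neg_smul, neg_neg] at h1
  have hneg : ∀ x : Fin n → F, hermForm n F q x x = 0 → MIn H (tMat q x g0) → MIn H (tMat q x (-g0)) :=
    fun x hx hm => hm.of_mul_eq_one (by rw [tMat_mul hF hx, add_neg_cancel, tMat_zero hF])
  have hiso : ∀ α : F, hermForm n F q (vU + vW + α • c) (vU + vW + α • c) = 0 := by
    intro α
    rw [herm_add_left (vU + vW) (α • c), herm_add_right hF (vU + vW), herm_add_right hF (α • c) (vU + vW),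
      hvv, herm_smul_left, herm_smul_left, herm_smul_right, herm_smul_right, hvc, hcc, herm_eq_zero_comm hF hvc]
    ring
  obtain ⟨α, hα⟩ : ∃ α : F, α + α ^ q ≠ 0 := by
    obtain ⟨x, hx⟩ := exists_trace_eq hF (a := 1) (one_pow q)
    exact ⟨x, by rw [hx]; exact one_ne_zero⟩
  have hc : MIn H (tMat q c (g0 * (α + α ^ q))) := by
    rw [← tMat_polar hF hvv hcc hvc g0 α]
    have h1 := hshift 1
    rw [one_smul] at h1
    have hiso1 := hiso 1
    rw [one_smul] at hiso1
    exact (((hshift (α + 1)).mul (hneg _ (hiso α) (hshift α))).mul (hneg _ hiso1 h1)).mul hv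
  set k := g0 * (α + α ^ q) with hk
  have move : ∀ p r : Fin n → F, p ∈ U → r ∈ U → r ∉ Submodule.span F {p} → MIn H (tMat q p k) →
      p ≠ 0 → MIn H (tMat q r k) := by
    intro p r hpU hrU hr hmem hp0
    have hnp : p ∉ Submodule.span F {r - p} ⊔ Submodule.span F {r - p} := by
      rw [sup_idem]
      intro hm
      obtain ⟨s, hs⟩ := Submodule.mem_span_singleton.1 hm
      have hs0 : s ≠ 0 := by rintro rfl; exact hp0 (by rw [← hs, zero_smul])
      refine hr ((Submodule.smul_mem_iff _ hs0).1 ?_)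
      rw [show s • r = p + s • p by rw [← add_left_inj (-(s • p)), add_neg_cancel_right, ← sub_eq_add_neg, ← smul_sub, hs]]
      exact Submodule.add_mem _ (Submodule.mem_span_singleton_self _) (Submodule.smul_mem _ s (Submodule.mem_span_singleton_self _))
    obtain ⟨d, hdW, hrd, -, hpd⟩ := h.exists_dual hF hpU (U.sub_mem hrU hpU) (U.sub_mem hrU hpU) hnp
    have h1 := conj_mem_tMat hF hH hp hmem (hp (r - p) (U.sub_mem hrU hpU) (-d) (W.neg_mem hdW)
      (by rw [herm_neg_right hF, hrd, neg_zero]))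
    rwa [rMat_mulVec (h.left _ (U.sub_mem hrU hpU) _ (U.sub_mem hrU hpU)), h.left p hpU _ (U.sub_mem hrU hpU),
      herm_neg_right hF, hpd, zero_smul, add_zero, neg_smul, one_smul, sub_neg_eq_add, add_sub_cancel] at h1
  have hall : ∀ u ∈ U, MIn H (tMat q u k) := by
    intro u hu
    by_cases hu0 : u = 0
    · refine ⟨1, H.one_mem, matrix_ext fun x => ?_⟩
      rw [tMat_mulVec, hu0, smul_zero, add_zero, Units.val_one, Matrix.one_mulVec]
    by_cases huc : u ∈ Submodule.span F {c}
    · obtain ⟨e, heU, -, -, heN⟩ := exists_ortho_avoid (q := q) (X := U) (P := Submodule.span F {c}) (by omega)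
        ((finrank_span_singleton hc0).le.trans one_le_two) 0 0
      have he0 : e ≠ 0 := fun h0 => heN (h0 ▸ zero_mem _)
      refine move e u heU hu (fun hm => ?_) (move c e hcU heU heN hc hc0) he0
      obtain ⟨r, hr⟩ := Submodule.mem_span_singleton.1 hm
      have hr0 : r ≠ 0 := by rintro rfl; exact hu0 (by rw [← hr, zero_smul])
      exact heN ((Submodule.smul_mem_iff _ hr0).1 (hr.symm ▸ huc))
    · exact move c u hcU hu huc hc hc0
  intro u hu t ht
  have hk0 : k ≠ 0 := mul_ne_zero hg0 hα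
  have hkq : k ^ q = -k := by
    rw [hk, mul_pow, add_pow_q hF, pow_q_q hF, eq_neg_of_add_eq_zero_right htr]
    ring
  obtain ⟨s, hs⟩ := exists_norm_eq hF (a := t / k) (by
    rw [div_pow, hkq, eq_neg_of_add_eq_zero_right ht, neg_div_neg_eq])
  have h1 := hall (s • u) (U.smul_mem _ hu)
  rwa [tMat_smul hF, hs, mul_div_cancel₀ _ hk0] at h1

end OverGroup

/-- An element of the special unitary group exchanging the two halves. -/
lemma IsoPair.exists_swap (h : IsoPair q U W) : ∃ s ∈ Cfsg.GU n F q ⊓ Cfsg.Geo.specialLinear (Fin n) F,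
    (∀ x ∈ U, (s : Matrix (Fin n) (Fin n) F) *ᵥ x ∈ W) ∧ (∀ x ∈ W, (s : Matrix (Fin n) (Fin n) F) *ᵥ x ∈ U) := by
  obtain ⟨u, w, hu, hw, hd, hsu, hsw⟩ := h.exists_dual_bases hF
  have hd' : ∀ i j, hermForm n F q (w j) (u i) = if i = j then 1 else 0 := by
    intro i j
    rw [herm_conj hF, hd]
    split <;> simp [zero_pow_q hF]
  obtain ⟨c, hc0, hc⟩ := exists_trace_zero_ne_zero hF
  have huu : ∀ i j, hermForm n F q (u i) (u j) = 0 := fun i j => h.left _ (hu i) _ (hu j)
  have hww : ∀ i j, hermForm n F q (w i) (w j) = 0 := fun i j => h.right _ (hw i) _ (hw j)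
  classical
  suffices key : ∀ S : Finset (Fin (finrank F U)), ∃ s ∈ Cfsg.GU n F q ⊓ Cfsg.Geo.specialLinear (Fin n) F,
      (∀ j, (s : Matrix (Fin n) (Fin n) F) *ᵥ u j = if j ∈ S then (-c⁻¹) • w j else u j) ∧
      (∀ j, (s : Matrix (Fin n) (Fin n) F) *ᵥ w j = if j ∈ S then c • u j else w j) by
    obtain ⟨s, hs, h1, h2⟩ := key Finset.univ
    refine ⟨s, hs, fun x hx => ?_, fun x hx => ?_⟩
    · rw [← hsu] at hx
      induction hx using Submodule.span_induction with
      | mem y hy => obtain ⟨j, rfl⟩ := hy; rw [h1, if_pos (Finset.mem_univ j)]; exact W.smul_mem _ (hw j)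
      | zero => rw [Matrix.mulVec_zero]; exact W.zero_mem
      | add y z _ _ hy hz => rw [Matrix.mulVec_add]; exact W.add_mem hy hz
      | smul a y _ hy => rw [Matrix.mulVec_smul]; exact W.smul_mem _ hy
    · rw [← hsw] at hx
      induction hx using Submodule.span_induction with
      | mem y hy => obtain ⟨j, rfl⟩ := hy; rw [h2, if_pos (Finset.mem_univ j)]; exact U.smul_mem _ (hu j)
      | zero => rw [Matrix.mulVec_zero]; exact U.zero_mem
      | add y z _ _ hy hz => rw [Matrix.mulVec_add]; exact U.add_mem hy hz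
      | smul a y _ hy => rw [Matrix.mulVec_smul]; exact U.smul_mem _ hy
  intro S
  induction S using Finset.induction_on with
  | empty => exact ⟨1, one_mem _, fun j => by simp, fun j => by simp⟩
  | insert i S hiS ih =>
    obtain ⟨s, hs, h1, h2⟩ := ih
    obtain ⟨g1, hg1, e1⟩ := exists_tMat_mem hF (huu i i) hc
    obtain ⟨g2, hg2, e2⟩ := exists_tMat_mem hF (hww i i) (neg_inv_trace_zero hF hc)
    refine ⟨g1 * g2 * g1 * s, mul_mem (mul_mem (mul_mem hg1 hg2) hg1) hs, fun j => ?_, fun j => ?_⟩ <;>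
      rw [Units.val_mul, Units.val_mul, Units.val_mul, ← Matrix.mulVec_mulVec, ← Matrix.mulVec_mulVec,
        ← Matrix.mulVec_mulVec, e1, e2]
    · rw [h1]
      by_cases hji : j = i
      · subst hji
        rw [if_neg hiS, if_pos (Finset.mem_insert_self _ _)]
        simp only [tMat_mulVec, herm_add_left, herm_smul_left, huu, hww, hd, hd', if_true]
        match_scalars <;> field_simp <;> ring
      · by_cases hjS : j ∈ S
        · rw [if_pos hjS, if_pos (Finset.mem_insert_of_mem hjS)]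
          simp only [tMat_mulVec, herm_add_left, herm_smul_left, huu, hww, hd, hd', if_neg hji, if_neg (Ne.symm hji)]
          module
        · rw [if_neg hjS, if_neg (by simp [hji, hjS])]
          simp only [tMat_mulVec, herm_add_left, herm_smul_left, huu, hww, hd, hd', if_neg hji, if_neg (Ne.symm hji)]
          module
    · rw [h2]
      by_cases hji : j = i
      · subst hji
        rw [if_neg hiS, if_pos (Finset.mem_insert_self _ _)]
        simp only [tMat_mulVec, herm_add_left, herm_smul_left, huu, hww, hd, hd', if_true]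
        match_scalars <;> field_simp <;> ring
      · by_cases hjS : j ∈ S
        · rw [if_pos hjS, if_pos (Finset.mem_insert_of_mem hjS)]
          simp only [tMat_mulVec, herm_add_left, herm_smul_left, huu, hww, hd, hd', if_neg hji, if_neg (Ne.symm hji)]
          module
        · rw [if_neg hjS, if_neg (by simp [hji, hjS])]
          simp only [tMat_mulVec, herm_add_left, herm_smul_left, huu, hww, hd, hd', if_neg hji, if_neg (Ne.symm hji)]
          module

/-- The stabiliser of an isotropic pair is maximal in the special unitary group. -/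
theorem isoPair_isMaximal (h32 : ¬ (n = 3 ∧ q = 2)) (h : IsoPair q U W) (P : Subgroup (GL (Fin n) F))
    (hP : ∀ g, g ∈ P ↔ g ∈ Cfsg.GU n F q ⊓ Cfsg.Geo.specialLinear (Fin n) F ∧
      ((∀ x ∈ U, (g : Matrix (Fin n) (Fin n) F) *ᵥ x ∈ U) ∧ (∀ x ∈ W, (g : Matrix (Fin n) (Fin n) F) *ᵥ x ∈ W) ∨
       (∀ x ∈ U, (g : Matrix (Fin n) (Fin n) F) *ᵥ x ∈ W) ∧ (∀ x ∈ W, (g : Matrix (Fin n) (Fin n) F) *ᵥ x ∈ U))) :
    Cfsg.Geo.IsMaximalIn (Cfsg.GU n F q ⊓ Cfsg.Geo.specialLinear (Fin n) F) P := by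
  have hd := h.dim
  have hsame := h.same
  have hsplit : ∀ v : Fin n → F, ∃ p ∈ U, ∃ r ∈ W, p + r = v := fun v =>
    Submodule.mem_sup.1 (h.top ▸ Submodule.mem_top)
  have hinfb : U ⊓ W = ⊥ := (Submodule.eq_bot_iff _).2 fun x hx => h.inf x hx.1 hx.2
  have hcard := Submodule.finrank_sup_add_finrank_inf_eq U W
  rw [h.top, finrank_top, finrank_fintype_fun_eq_card, Fintype.card_fin, hinfb, finrank_bot] at hcard
  have hPUW : ∀ u ∈ U, ∀ w ∈ W, hermForm n F q u w = 0 → MIn P (rMat q u w) := by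
    intro u hu w hw huw
    obtain ⟨g, hg, e⟩ := exists_rMat_mem hF (h.left u hu u hu) (h.right w hw w hw) huw
    refine ⟨g, (hP _).2 ⟨hg, Or.inl ⟨fun x hx => ?_, fun x hx => ?_⟩⟩, e⟩
    · rw [e, rMat_mulVec (h.left u hu u hu), h.left x hx u hu, zero_smul, add_zero]
      exact U.sub_mem hx (U.smul_mem _ hu)
    · rw [e, rMat_mulVec (h.left u hu u hu), h.right x hx w hw, zero_smul, sub_zero]
      exact W.add_mem hx (W.smul_mem _ hw)
  refine ⟨lt_of_le_not_ge (fun g hg => ((hP g).1 hg).1) fun hle => ?_, fun M hPM hMG => ?_⟩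
  · obtain ⟨u, huU, hu0⟩ := Submodule.exists_mem_ne_zero_of_ne_bot (p := U) (by
      intro h0; rw [h0, finrank_bot] at hd; omega)
    obtain ⟨x, hxW, -, -, hux⟩ := h.exists_dual hF (v := u) (p := 0) (r := 0) huU U.zero_mem U.zero_mem
      (by simpa using hu0)
    obtain ⟨c, hc0, hc⟩ := exists_trace_zero_ne_zero hF
    obtain ⟨g, hg, e⟩ := exists_tMat_mem hF (h.left u huU u huU) hc
    obtain ⟨-, hfix⟩ := (hP _).1 (hle hg)
    rcases hfix with ⟨-, h1⟩ | ⟨h1, -⟩
    · have h2 := W.sub_mem (h1 x hxW) hxW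
      rw [e, tMat_mulVec, add_sub_cancel_left, herm_conj hF u x, hux, one_pow, mul_one] at h2
      exact hu0 (h.inf u huU ((Submodule.smul_mem_iff _ hc0).1 h2))
    · have h2 := h1 u huU
      rw [e, tMat_mulVec, h.left u huU u huU, mul_zero, zero_smul, add_zero] at h2
      exact hu0 (h.inf u huU h2)
  by_cases hMP : M ≤ P
  · exact Or.inl (le_antisymm hMP hPM)
  refine Or.inr (le_antisymm hMG ?_)
  have hMI : ∀ g ∈ M, ∀ x y, hermForm n F q ((g : Matrix (Fin n) (Fin n) F) *ᵥ x)
      ((g : Matrix (Fin n) (Fin n) F) *ᵥ y) = hermForm n F q x y := fun g hg => (hMG hg).1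
  have hUW : ∀ u ∈ U, ∀ w ∈ W, hermForm n F q u w = 0 → MIn M (rMat q u w) :=
    fun u hu w hw h' => (hPUW u hu w hw h').mono hPM
  have hWU : ∀ w ∈ W, ∀ u ∈ U, hermForm n F q w u = 0 → MIn M (rMat q w u) := fun w hw u hu h' =>
    (hUW u hu w hw (herm_eq_zero_comm hF h')).of_mul_eq_one
      (rMat_neg_mul hF (h.left u hu u hu) (h.right w hw w hw) (herm_eq_zero_comm hF h'))
  obtain ⟨g, hgM, hgP⟩ := SetLike.not_le_iff_exists.1 hMP
  have hgI := hMI g hgM
  have hsrc : ∃ v c, v ≠ 0 ∧ hermForm n F q v v = 0 ∧ c ≠ 0 ∧ c + c ^ q = 0 ∧ MIn M (tMat q v c) := by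
    by_contra hno
    have hhalf : ∀ X Y : Submodule F (Fin n → F), IsoPair q X Y →
        (∀ x ∈ X, ∀ y ∈ Y, hermForm n F q x y = 0 → MIn M (rMat q x y)) →
        ∀ x ∈ X, (g : Matrix (Fin n) (Fin n) F) *ᵥ x ∈ U ∨ (g : Matrix (Fin n) (Fin n) F) *ᵥ x ∈ W := by
      intro X Y hXY hmem x hx
      obtain ⟨p, hp, r, hr, hpr⟩ := hsplit ((g : Matrix (Fin n) (Fin n) F) *ᵥ x)
      by_contra hc
      push Not at hc
      have hp0 : p ≠ 0 := by rintro rfl; rw [zero_add] at hpr; exact hc.2 (hpr ▸ hr)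
      have hr0 : r ≠ 0 := by rintro rfl; rw [add_zero] at hpr; exact hc.1 (hpr ▸ hp)
      set L : Y →ₗ[F] F := (hermLeft q x).comp Y.subtype with hL
      have hle : ((LinearMap.ker L).map Y.subtype).map (Matrix.toLin' (g : Matrix (Fin n) (Fin n) F)) ≤
          Submodule.span F {p} ⊔ Submodule.span F {r} := by
        rintro _ ⟨_, ⟨y, hy, rfl⟩, rfl⟩
        have hyx : hermForm n F q (y : Fin n → F) x = 0 := hy
        have hxy := herm_eq_zero_comm hF hyx
        rw [Matrix.toLin'_apply, Submodule.subtype_apply]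
        obtain ⟨p', hp', r', hr', hpr'⟩ := hsplit ((g : Matrix (Fin n) (Fin n) F) *ᵥ (y : Fin n → F))
        obtain ⟨k, hk, hke⟩ := hmem x hx y y.2 hxy
        have h1 : MIn M (rMat q (p + r) (p' + r')) := ⟨g * k * g⁻¹, M.mul_mem (M.mul_mem hgM hk) (M.inv_mem hgM), by
          rw [Units.val_mul, Units.val_mul, hke, conj_rMat hF hgI _ (hXY.left x hx x hx), hpr, hpr']⟩
        have h0 : hermForm n F q (p + r) (p' + r') = 0 := by rw [hpr, hpr']; exact (hgI x y).trans hxy
        have haa : hermForm n F q (p' + r') (p' + r') = 0 := by rw [hpr']; exact (hgI _ _).trans (hXY.right _ y.2 _ y.2)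
        have hbb : hermForm n F q (p + r) (p + r) = 0 := by rw [hpr]; exact (hgI _ _).trans (hXY.left _ hx _ hx)
        rw [← hpr']
        refine Submodule.add_mem_sup ?_ ?_
        · by_contra hind
          exact hno (transv_of_root hF hMI hUW h hp' hr' hp hr haa hbb h0 h1 hp0 hind)
        · by_contra hind
          rw [add_comm p r, add_comm p' r'] at h0 h1
          rw [add_comm p r] at hbb
          rw [add_comm p' r'] at haa
          exact hno (transv_of_root hF hMI hWU h.symm hr' hp' hr hp haa hbb h0 h1 hr0 hind)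
      have h1 := Submodule.finrank_mono hle
      rw [(Submodule.equivMapOfInjective _ (fun a b hab => by
          have := congrArg (((g⁻¹ : GL (Fin n) F) : Matrix (Fin n) (Fin n) F) *ᵥ ·) hab
          simpa [Matrix.toLin'_apply, Matrix.mulVec_mulVec] using this) _).finrank_eq.symm,
        ← (Submodule.equivMapOfInjective _ Y.injective_subtype _).finrank_eq] at h1
      have h2 := finrank_span_pair_le' p r
      have h3 := LinearMap.finrank_range_add_finrank_ker L
      have h4 := Submodule.finrank_le (LinearMap.range L)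
      rw [Module.finrank_self] at h4
      have := hXY.symm.dim
      omega
    have hwhole : ∀ X : Submodule F (Fin n → F),
        (∀ x ∈ X, (g : Matrix (Fin n) (Fin n) F) *ᵥ x ∈ U ∨ (g : Matrix (Fin n) (Fin n) F) *ᵥ x ∈ W) →
        (∀ x ∈ X, (g : Matrix (Fin n) (Fin n) F) *ᵥ x ∈ U) ∨ (∀ x ∈ X, (g : Matrix (Fin n) (Fin n) F) *ᵥ x ∈ W) := by
      intro X hX
      by_contra hc
      push Not at hc
      obtain ⟨⟨x, hx, hxU⟩, ⟨y, hy, hyW⟩⟩ := hc
      have hxW := (hX x hx).resolve_left hxU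
      have hyU := (hX y hy).resolve_right hyW
      rcases hX (x + y) (X.add_mem hx hy) with h' | h' <;> rw [Matrix.mulVec_add] at h'
      · exact hxU (by simpa using U.sub_mem h' hyU)
      · exact hyW (by simpa using W.sub_mem h' hxW)
    have hboth : ∀ X : Submodule F (Fin n → F), finrank F X < n →
        ¬ ((∀ x ∈ U, (g : Matrix (Fin n) (Fin n) F) *ᵥ x ∈ X) ∧ (∀ x ∈ W, (g : Matrix (Fin n) (Fin n) F) *ᵥ x ∈ X)) := by
      rintro X hlt ⟨h1, h2⟩
      have : (⊤ : Submodule F (Fin n → F)) ≤ X := fun v _ => by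
        obtain ⟨p, hp, r, hr, hpr⟩ := hsplit (((g⁻¹ : GL (Fin n) F) : Matrix (Fin n) (Fin n) F) *ᵥ v)
        have e : v = (g : Matrix (Fin n) (Fin n) F) *ᵥ (((g⁻¹ : GL (Fin n) F) : Matrix (Fin n) (Fin n) F) *ᵥ v) := by
          rw [Matrix.mulVec_mulVec, Units.mul_inv, Matrix.one_mulVec]
        rw [e, ← hpr, Matrix.mulVec_add]
        exact X.add_mem (h1 p hp) (h2 r hr)
      have := Submodule.finrank_mono this
      rw [finrank_top, finrank_fintype_fun_eq_card, Fintype.card_fin] at this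
      omega
    refine hgP ((hP g).2 ⟨hMG hgM, ?_⟩)
    rcases hwhole U (hhalf U W h hUW) with h1 | h1 <;> rcases hwhole W (hhalf W U h.symm hWU) with h2 | h2
    · exact absurd ⟨h1, h2⟩ (hboth U (by omega))
    · exact Or.inl ⟨h1, h2⟩
    · exact Or.inr ⟨h1, h2⟩
    · exact absurd ⟨h1, h2⟩ (hboth W (by omega))
  obtain ⟨s, hsG, hsU, hsW⟩ := h.exists_swap hF
  have hsM : s ∈ M := hPM ((hP s).2 ⟨hsG, Or.inr ⟨hsU, hsW⟩⟩)
  have transport : ∀ X Y : Submodule F (Fin n → F), (∀ y ∈ Y, (s : Matrix (Fin n) (Fin n) F) *ᵥ y ∈ X) →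
      (∀ x ∈ X, ∀ t : F, t + t ^ q = 0 → MIn M (tMat q x t)) →
      ∀ y ∈ Y, ∀ t : F, t + t ^ q = 0 → MIn M (tMat q y t) := by
    intro X Y hYX hX y hy t ht
    obtain ⟨k, hk, e⟩ := hX _ (hYX y hy) t ht
    refine ⟨s⁻¹ * k * s⁻¹⁻¹, M.mul_mem (M.mul_mem (M.inv_mem hsM) hk) (M.inv_mem (M.inv_mem hsM)), ?_⟩
    rw [Units.val_mul, Units.val_mul, e, conj_tMat hF (hMI _ (M.inv_mem hsM)), Matrix.mulVec_mulVec, Units.inv_mul,
      Matrix.one_mulVec]
  obtain ⟨v, c0, hv0, hvv, hc0, hc0t, hv⟩ := hsrc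
  obtain ⟨p, hp, r, hr, rfl⟩ := hsplit v
  obtain ⟨hUall, hWall⟩ : (∀ x ∈ U, ∀ t : F, t + t ^ q = 0 → MIn M (tMat q x t)) ∧
      (∀ x ∈ W, ∀ t : F, t + t ^ q = 0 → MIn M (tMat q x t)) := by
    by_cases hp0 : p = 0
    · have hr0 : r ≠ 0 := by rintro rfl; exact hv0 (by rw [hp0, add_zero])
      have := transv_half_spread hF hMI hWU h.symm hr hp hr0 (by rwa [add_comm r p]) hc0 hc0t (by rwa [add_comm r p])
      exact ⟨transport W U hsU this, this⟩
    · have := transv_half_spread hF hMI hUW h hp hr hp0 hvv hc0 hc0t hv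
      exact ⟨this, transport U W hsW this⟩
  have hne : ∀ p ∈ U, ∀ r ∈ W, hermForm n F q r p ≠ 0 → hermForm n F q r p + hermForm n F q r p ^ q = 0 →
      ∀ t : F, t + t ^ q = 0 → MIn M (tMat q (p + r) t) := by
    intro p hp r hr hne htr t ht
    have hi : (hermForm n F q r p)⁻¹ + (hermForm n F q r p)⁻¹ ^ q = 0 := by
      rw [inv_pow_q, eq_neg_of_add_eq_zero_right htr, inv_neg, add_neg_cancel]
    obtain ⟨k, hk, e⟩ := hUall p hp _ hi
    obtain ⟨k', hk', e'⟩ := hWall r hr t ht
    refine ⟨k * k' * k⁻¹, M.mul_mem (M.mul_mem hk hk') (M.inv_mem hk), ?_⟩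
    rw [Units.val_mul, Units.val_mul, e', conj_tMat hF (hMI k hk), e, tMat_mulVec, inv_mul_cancel₀ hne, one_smul,
      add_comm r p]
  refine le_of_tMat_mem hF h32 fun v t hv ht => ?_
  obtain ⟨p, hp, r, hr, rfl⟩ := hsplit v
  by_cases hr0 : r = 0
  · rw [hr0, add_zero]; exact hUall p hp t ht
  have htr : hermForm n F q r p + hermForm n F q r p ^ q = 0 := by
    rw [← herm_conj hF r p]
    rw [herm_add_left, herm_add_right hF, herm_add_right hF, h.left p hp p hp, h.right r hr r hr] at hv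
    linear_combination hv
  by_cases hpr : hermForm n F q r p = 0
  swap
  · exact hne p hp r hr hpr htr t ht
  obtain ⟨u0, hu0U, -, -, hru0⟩ := h.symm.exists_dual hF (v := r) (p := 0) (r := 0) hr W.zero_mem W.zero_mem
    (by simpa using hr0)
  obtain ⟨δ, hδ0, hδ⟩ := exists_trace_zero_ne_zero hF
  set u := δ ^ q • u0 with hu
  have huU : u ∈ U := U.smul_mem _ hu0U
  have hru : hermForm n F q r u = δ := by rw [hu, herm_smul_right, hru0, mul_one, pow_q_q hF]
  have hd' : hermForm n F q r (p - u) = -δ := by rw [herm_sub_right hF, hpr, hru, zero_sub]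
  obtain ⟨k', hk', e'⟩ := hne (p - u) (U.sub_mem hp huU) r hr (by rw [hd']; exact neg_ne_zero.2 hδ0)
    (by rw [hd', neg_pow_q hF]; linear_combination -hδ) t ht
  obtain ⟨k, hk, e⟩ := hUall u huU δ⁻¹ (by rw [inv_pow_q, eq_neg_of_add_eq_zero_right hδ, inv_neg, add_neg_cancel])
  refine ⟨k * k' * k⁻¹, M.mul_mem (M.mul_mem hk hk') (M.inv_mem hk), ?_⟩
  rw [Units.val_mul, Units.val_mul, e', conj_tMat hF (hMI k hk), e, tMat_mulVec, herm_add_left,
    h.left _ (U.sub_mem hp huU) u huU, hru, zero_add, inv_mul_cancel₀ hδ0, one_smul]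
  congr 1
  abel

end CfsgLib.UnitGeo91
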